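import Cfsg.Agent.BlkRat.Section
import Cfsg.Agent.OddChar.Twist

/-!
A block has at least as many `p`-rational irreducible characters as its `p`-regular rank.
-/

noncomputable section

set_option autoImplicit false
set_option linter.style.haveILetI false
set_option linter.unusedSectionVars false

namespace Cfsg.Agent.BlkRat

open Cfsg
open Cfsg.Agent.Block
open scoped ComplexConjugate
open Cfsg.Agent.Brauer (regSum)

universe u

variable {G : Type u} [Group G] [Fintype G] {p : ℕ} {M : Ideal AlgInt}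

/-- A multiplier generating the units of the `p`-part and fixing the rest. -/
theorem exists_gen_exponent (hp : p.Prime) (hodd : p ≠ 2) {n : ℕ} (hn : n ≠ 0) :
    ∃ k : ℕ, k.Coprime n ∧ k ≡ 1 [MOD n / p ^ n.factorization p] ∧
      ∀ k' : ℕ, k'.Coprime n → k' ≡ 1 [MOD n / p ^ n.factorization p] →
        ∃ j : ℕ, k' ≡ k ^ j [MOD n] := by
  set a := n.factorization p
  set m := n / p ^ a with hm
  have hnm : p ^ a * m = n := Nat.ordProj_mul_ordCompl_eq_self n p
  have hcop : (p ^ a).Coprime m := (Nat.coprime_ordCompl hp hn).pow_left a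
  haveI : NeZero (p ^ a) := ⟨pow_ne_zero a hp.ne_zero⟩
  haveI := ZMod.isCyclic_units_of_prime_pow p hp hodd a
  obtain ⟨u, hu⟩ := IsCyclic.exists_generator (α := (ZMod (p ^ a))ˣ)
  obtain ⟨k, hk1, hk2⟩ := Nat.chineseRemainder hcop (u : ZMod (p ^ a)).val 1
  have hkc : k.Coprime n := by
    rw [← hnm]
    refine Nat.Coprime.mul_right ?_ ?_
    · show Nat.gcd k _ = 1
      rw [hk1.gcd_eq]; exact ZMod.val_coe_unit_coprime u
    · show Nat.gcd k _ = 1
      rw [hk2.gcd_eq]; exact Nat.gcd_one_left m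
  refine ⟨k, hkc, hk2, fun k' hk' hk'1 => ?_⟩
  have hk'q : k'.Coprime (p ^ a) := hk'.coprime_dvd_right ⟨m, hnm.symm⟩
  obtain ⟨j, hj⟩ := mem_powers_iff_mem_zpowers.2 (hu (ZMod.unitOfCoprime k' hk'q))
  refine ⟨j, ?_⟩
  rw [← hnm, ← Nat.modEq_and_modEq_iff_modEq_mul hcop]
  refine ⟨?_, hk'1.trans ?_⟩
  · have h1 := congrArg (fun v : (ZMod (p ^ a))ˣ => (v : ZMod (p ^ a))) hj
    simp only [Units.val_pow_eq_pow_val, ZMod.coe_unitOfCoprime] at h1
    rw [← ZMod.natCast_zmod_val (u : ZMod (p ^ a)), ← Nat.cast_pow,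
      ZMod.natCast_eq_natCast_iff] at h1
    exact h1.symm.trans (hk1.pow j).symm
  · simpa using (hk2.pow j).symm

theorem regSum_self_ne_zero (hp : p.Prime) (χ : IrrCharacter G) :
    regSum p (χ : G → ℂ) (χ : G → ℂ) ≠ 0 := by
  classical
  unfold regSum
  simp only [Complex.mul_conj, ← Complex.ofReal_sum]
  rw [Complex.ofReal_ne_zero]
  refine (Finset.sum_pos' (fun y _ => Complex.normSq_nonneg _) ⟨1, ?_, ?_⟩).ne'
  · simp [hp.ne_one]
  · exact Complex.normSq_pos.2 (Char.irr_one_ne_zero χ.2)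

open Classical in
/-- Distinct `p`-parts, up to conjugacy, give orthogonal columns in a block. -/
theorem colSum_eq_zero_of_not_conj (hM : IsPModular p M) {B : Set (IrrCharacter G)}
    (hB : IsPBlock M B) {v x y : G} {i : ℕ} (hv : orderOf v ∣ p ^ i) (hx : orderOf x ∣ p ^ i)
    (hvy : Commute v y) (hxy : Commute x y) (hy : ¬ p ∣ orderOf y) (hne : ¬ IsConj v x) :
    colSum B (v * y) (x * y) = 0 := by
  haveI : M.IsPrime := hM.2.1.isPrime
  have h0 := blockOrth_of_integral hM (blockCoeff_memLocalRing hB) (g := v * y) (h := x * y)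
    fun z j hz => by
      by_contra hj
      apply hne
      have hc : ∀ t : G, orderOf t ∣ p ^ i → Commute t y →
          Element.pPart p ((t * y) ^ j) = t ^ j := by
        intro t ht hty
        obtain ⟨l, -, hl⟩ := (Nat.dvd_prime_pow hM.1).1
          ((orderOf_dvd_of_mem_zpowers (Subgroup.zpow_mem _ (Subgroup.mem_zpowers t) j)).trans ht)
        refine (Element.eq_pPart hM.1 (hty.zpow_zpow j j) (hty.mul_zpow j).symm hl ?_).1.symm
        exact Nat.Coprime.coprime_dvd_left
          (orderOf_dvd_of_mem_zpowers (Subgroup.zpow_mem _ (Subgroup.mem_zpowers y) j))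
          (hM.1.coprime_iff_not_dvd.2 hy).symm
      have h1 : z⁻¹ * (v * y) ^ j * z⁻¹⁻¹ = (x * y) ^ j := by
        rw [mul_inv_eq_iff_eq_mul] at hz
        rw [inv_inv, mul_assoc, hz]; group
      have h2 := (Element.pPart_conj hM.1 z⁻¹ ((v * y) ^ j)).1
      rw [h1, hc v hv hvy, hc x hx hxy] at h2
      obtain ⟨a, b, hab⟩ : IsCoprime j ((p ^ i : ℕ) : ℤ) := by
        rw [Nat.cast_pow]
        exact (((Nat.prime_iff_prime_int.1 hM.1).coprime_iff_not_dvd).2 hj).symm.pow_right
      have hpw : ∀ t : G, orderOf t ∣ p ^ i → (t ^ j) ^ a = t := by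
        intro t ht
        calc (t ^ j) ^ a = t ^ (a * j + b * ((p ^ i : ℕ) : ℤ)) := by
              rw [zpow_add, mul_comm b, zpow_mul t ((p ^ i : ℕ) : ℤ), zpow_natCast,
                orderOf_dvd_iff_pow_eq_one.1 ht, one_zpow, mul_one, mul_comm a, zpow_mul]
          _ = t := by rw [hab, zpow_one]
      refine isConj_iff.2 ⟨z⁻¹, ?_⟩
      have h3 := congrArg (fun t => t ^ a) h2
      simp only [conj_zpow, hpw v hv, hpw x hx] at h3
      exact h3.symm
  rw [finsum_mem_eq_toFinset_sum] at h0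
  rw [colSum, ← h0]
  refine Finset.sum_congr (by ext; simp) fun χ _ => ?_
  rw [Char.irr_inv χ.2]

open Classical in
/-- At least `blockRank p B` members of the block are fixed by the twist. -/
theorem blockRank_le_card_fixed (hM : IsPModular p M) {B : Set (IrrCharacter G)}
    (hB : IsPBlock M B) {k : ℕ} (hk : k.Coprime (Nat.card G))
    (hkreg : ∀ y : G, ¬ p ∣ orderOf y → y ^ k = y) :
    blockRank p B ≤
      Nat.card {χ : IrrCharacter G // χ ∈ B ∧ ∀ g : G, (χ : G → ℂ) (g ^ k) = (χ : G → ℂ) g} := by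
  haveI : M.IsPrime := hM.2.1.isPrime
  haveI : Fact p.Prime := ⟨hM.1⟩
  let twf : IrrCharacter G → IrrCharacter G := fun χ =>
    ⟨fun g => (χ : G → ℂ) (g ^ k), OddChar.irr_twist χ.2 hk⟩
  have htinj : Function.Injective twf := by
    intro χ ψ h
    refine Subtype.ext (funext fun g => ?_)
    obtain ⟨g, rfl⟩ := (powCoprime hk.symm).surjective g
    exact congrFun (congrArg Subtype.val h) g
  let tw : IrrCharacter G ≃ IrrCharacter G :=
    Equiv.ofBijective twf (Finite.injective_iff_bijective.1 htinj)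
  have htw : ∀ χ g, ((tw χ : IrrCharacter G) : G → ℂ) g = (χ : G → ℂ) (g ^ k) := fun _ _ => rfl
  have hreg : ∀ χ : IrrCharacter G,
      regSum p ((tw χ : IrrCharacter G) : G → ℂ) (χ : G → ℂ) =
        regSum p (χ : G → ℂ) (χ : G → ℂ) := fun χ => Finset.sum_congr rfl fun y hy => by
    rw [htw, hkreg y (Finset.mem_filter.1 hy).2]
  have htwB : ∀ χ, tw χ ∈ B ↔ χ ∈ B := by
    intro χ
    constructor
    · intro h
      by_contra h'
      exact regSum_self_ne_zero hM.1 χ ((hreg χ).symm.trans
        (Brauer.regSum_eq_zero_of_integral hM B (blockCoeff_memLocalRing hB) h h'))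
    · intro h
      by_contra h'
      apply regSum_self_ne_zero hM.1 χ
      rw [← hreg χ, ← Brauer.regSum_conj,
        Brauer.regSum_eq_zero_of_integral hM B (blockCoeff_memLocalRing hB) h h', map_zero]
  set S := Finset.univ.filter fun χ : IrrCharacter G =>
    χ ∈ B ∧ ∀ g : G, (χ : G → ℂ) (g ^ k) = (χ : G → ℂ) g with hS
  rw [Nat.card_eq_fintype_card, Fintype.card_subtype]
  change blockRank p B ≤ S.card
  set F : G → ℂ := fun g => colSum B (g ^ k) g with hF
  have hFc : IsClassFunction G F := fun g c => by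
    simp only [hF, conj_pow, colSum_conj_left, colSum_conj_right]
  have hsum : ∑ g : G, F g = (Nat.card G : ℂ) * (S.card : ℂ) := by
    simp only [hF, colSum]
    rw [Finset.sum_comm]
    simp only [← htw, Char.sum_mul_conj_eq_card_mul_classInner, Char.classInner_irrCharacter]
    rw [← Finset.mul_sum]
    congr 1
    rw [← Finset.sum_filter, Finset.sum_const, nsmul_eq_mul, mul_one, Finset.filter_filter]
    congr 1
    refine congrArg Finset.card (Finset.filter_congr fun χ _ => and_congr_right fun _ => ?_)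
    simp [Subtype.ext_iff, funext_iff, htw]
  -- representatives of the classes of `p`-elements
  haveI : Finite (ConjClasses G) := Finite.of_surjective _ ConjClasses.mk_surjective
  letI : Fintype (ConjClasses G) := Fintype.ofFinite _
  set X : Finset G := (Finset.univ.image fun c : ConjClasses G => Quotient.out c).filter
    fun x => ∃ i, orderOf x = p ^ i with hX
  have hXp : ∀ x ∈ X, ∃ i, orderOf x = p ^ i := fun x hx => (Finset.mem_filter.1 hx).2
  have hXrep : ∀ g : G, (∃ i, orderOf g = p ^ i) → ∃! x, x ∈ X ∧ IsConj g x := by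
    intro g hg
    have hc : IsConj g (Quotient.out (ConjClasses.mk g)) :=
      (ConjClasses.mk_eq_mk_iff_isConj.1 (Quotient.out_eq (ConjClasses.mk g)).symm)
    refine ⟨_, ⟨Finset.mem_filter.2 ⟨Finset.mem_image_of_mem _ (Finset.mem_univ _), ?_⟩, hc⟩, ?_⟩
    · obtain ⟨c, hc'⟩ := isConj_iff.1 hc
      rwa [← hc', ← MulAut.conj_apply, MulEquiv.orderOf_eq]
    · rintro x ⟨hx, hgx⟩
      obtain ⟨c, -, rfl⟩ := Finset.mem_image.1 (Finset.mem_filter.1 hx).1
      congr 1
      exact (Quotient.out_eq c).symm.trans (ConjClasses.mk_eq_mk_iff_isConj.2 hgx).symm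
  have hsec : ∀ x ∈ X, ∃ N : ℕ, ((Subgroup.centralizer ({x} : Set G)).index : ℂ) *
      (∑ᶠ y ∈ {y : Subgroup.centralizer ({x} : Set G) | ¬ p ∣ orderOf y}, F (x * (y : G))) =
        (Nat.card G : ℂ) * N ∧ (x = 1 → N = blockRank p B) := by
    intro x hx
    obtain ⟨i, hi⟩ := hXp x hx
    haveI := Fintype.ofFinite (Subgroup.centralizer ({x} : Set G))
    rw [finsum_mem_eq_toFinset_sum, ← Subgroup.index_mul_card (Subgroup.centralizer ({x} : Set G)),
      Nat.cast_mul]
    simp only [mul_assoc]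
    have hset : ({y : Subgroup.centralizer ({x} : Set G) | ¬ p ∣ orderOf y}).toFinset =
        Finset.univ.filter (fun y => ¬ p ∣ orderOf y) := by ext; simp
    rw [hset]
    by_cases hx1 : x = 1
    · refine ⟨blockRank p B, congrArg _ ?_, fun _ => rfl⟩
      have hall : ∀ g : G, g ∈ Subgroup.centralizer ({x} : Set G) := fun g => by
        rw [Subgroup.mem_centralizer_singleton_iff, hx1, mul_one, one_mul]
      rw [Nat.card_congr (Equiv.subtypeUnivEquiv hall), BrauerPairs.card_mul_blockRank hM hB]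
      simp only [regSum, hF, colSum]
      rw [Finset.sum_comm]
      refine Finset.sum_congr rfl fun χ _ => ?_
      refine Finset.sum_bij' (fun y _ => (y : G)) (fun g _ => ⟨g, hall g⟩) ?_ ?_
        (fun _ _ => rfl) (fun _ _ => rfl) ?_
      · intro y hy
        simpa [Subgroup.orderOf_coe] using hy
      · intro g hg
        simpa using hg
      · intro y hy
        have hy' : ¬ p ∣ orderOf (y : G) := by simpa [Subgroup.orderOf_coe] using hy
        simp only [hx1, one_mul, hkreg _ hy']
    by_cases hconj : IsConj x (x ^ k)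
    · obtain ⟨c, hc⟩ := isConj_iff.1 hconj
      obtain ⟨N, hN⟩ := section_trace hM hi rfl hB hk hc hkreg tw htw htwB
      exact ⟨N, congrArg _ (Eq.trans (Finset.sum_congr (by ext; simp) fun _ _ => rfl) hN),
        fun h => absurd h hx1⟩
    · refine ⟨0, ?_, fun h => absurd h hx1⟩
      rw [Finset.sum_eq_zero (fun y hy => ?_)]
      · simp
      have hy' : ¬ p ∣ orderOf (y : G) := by simpa [Subgroup.orderOf_coe] using hy
      have hcm : Commute x (y : G) :=
        (Subgroup.mem_centralizer_singleton_iff.1 y.2).symm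
      simp only [hF]
      rw [hcm.mul_pow, hkreg _ hy']
      exact colSum_eq_zero_of_not_conj hM hB
        (i := i) (hi ▸ orderOf_pow_dvd k) hi.dvd (hcm.pow_left k) hcm hy'
        fun h => hconj h.symm
  choose! N hN hN1 using hsec
  have htot : S.card = ∑ x ∈ X, N x := by
    refine Nat.cast_injective (R := ℂ) (mul_left_cancel₀
      (Nat.cast_ne_zero.2 (Nat.card_pos (α := G)).ne' : (Nat.card G : ℂ) ≠ 0) ?_)
    rw [← hsum, SecCount.sum_eq_sum_sections hM.1 X hXp hXrep hFc, Nat.cast_sum, Finset.mul_sum]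
    exact Finset.sum_congr rfl hN
  obtain ⟨x0, ⟨hx0, hc0⟩, -⟩ := hXrep 1 ⟨0, by simp⟩
  have hx01 : x0 = 1 := isConj_one_right.1 hc0
  calc blockRank p B = N x0 := (hN1 x0 hx0 hx01).symm
    _ ≤ ∑ x ∈ X, N x := Finset.single_le_sum (fun _ _ => Nat.zero_le _) hx0
    _ = S.card := htot.symm

end Cfsg.Agent.BlkRat
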