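import Mathlib.LinearAlgebra.Matrix.NonsingularInverse
import Mathlib.LinearAlgebra.Dimension.StrongRankCondition
import Mathlib.LinearAlgebra.Matrix.ToLin
import Mathlib.Tactic.NoncommRing

/-!
An idempotent matrix over a local ring commuting with a permutation, whose reduction is diagonal
in a permuted basis, has natural trace against that permutation.
-/

set_option autoImplicit false
set_option linter.style.haveILetI false

namespace Cfsg.Agent.BlkRat

open Matrix

variable {O F : Type*} [CommRing O] [Field F] (red : O →+* F)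

theorem trace_perm_idempotent_square (hu : ∀ x : O, red x ≠ 0 → IsUnit x) {ι : Type*} [Fintype ι]
    [DecidableEq ι] (π σ : Equiv.Perm ι) (E P : Matrix ι ι O) (δ : ι → Bool)
    (hE : E * E = E) (hEπ : ∀ c c', E (π c) (π c') = E c c')
    (hP : ∀ c i, P (π c) i = P c (σ i)) (hdet : red P.det ≠ 0)
    (heig : ∀ c i, red ((E * P) c i) = if δ i then red (P c i) else 0)
    (hδ : ∀ i, δ (σ i) = δ i) :
    ∃ n : ℕ, ∑ c, E (π c) c = (n : O) := by
  classical
  let Pi0 : Matrix ι ι O := Matrix.of fun c c' => if π c = c' then 1 else 0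
  let S : Matrix ι ι O := Matrix.of fun i' i => if σ i = i' then 1 else 0
  let D : Matrix ι ι O := Matrix.diagonal fun i => if δ i then 1 else 0
  have hl : ∀ (X : Matrix ι ι O) c d, (Pi0 * X) c d = X (π c) d := by
    intro X c d
    simp [Pi0, Matrix.mul_apply]
  have hr : ∀ (X : Matrix ι ι O) c i, (X * S) c i = X c (σ i) := by
    intro X c i
    simp [S, Matrix.mul_apply]
  have hPS : Pi0 * P = P * S := Matrix.ext fun c i => by rw [hl, hr, hP]
  have hPiE : Pi0 * E = E * Pi0 := Matrix.ext fun c d => by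
    rw [hl]
    obtain ⟨d', rfl⟩ := π.surjective d
    rw [hEπ, Matrix.mul_apply, Finset.sum_eq_single d']
    · simp [Pi0]
    · intro b _ hb
      simp [Pi0, π.injective.eq_iff, hb]
    · simp
  have hPu : IsUnit P.det := hu _ hdet
  have hQP : P⁻¹ * P = 1 := Matrix.nonsing_inv_mul _ hPu
  have hPQ : P * P⁻¹ = 1 := Matrix.mul_nonsing_inv _ hPu
  obtain ⟨E', hE'⟩ : ∃ X, X = P⁻¹ * E * P := ⟨_, rfl⟩
  have hidem : E' * E' = E' := by
    calc E' * E' = P⁻¹ * E * (P * P⁻¹) * E * P := by simp only [hE', Matrix.mul_assoc]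
      _ = P⁻¹ * (E * E) * P := by rw [hPQ, Matrix.mul_one]; simp only [Matrix.mul_assoc]
      _ = E' := by rw [hE, hE']
  have hcomm : S * E' = E' * S := by
    have h1 : P⁻¹ * Pi0 = S * P⁻¹ := by
      calc P⁻¹ * Pi0 = P⁻¹ * Pi0 * (P * P⁻¹) := by rw [hPQ, Matrix.mul_one]
        _ = P⁻¹ * (Pi0 * P) * P⁻¹ := by simp only [Matrix.mul_assoc]
        _ = S * P⁻¹ := by rw [hPS, ← Matrix.mul_assoc, hQP, Matrix.one_mul]
    calc S * E' = S * P⁻¹ * E * P := by simp only [hE', Matrix.mul_assoc]
      _ = P⁻¹ * (Pi0 * E) * P := by rw [← h1]; simp only [Matrix.mul_assoc]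
      _ = P⁻¹ * E * (Pi0 * P) := by rw [hPiE]; simp only [Matrix.mul_assoc]
      _ = E' * S := by rw [hPS]; simp only [hE', Matrix.mul_assoc]
  have hSD : S * D = D * S := Matrix.ext fun i' i => by
    rw [Matrix.mul_diagonal, Matrix.diagonal_mul]
    by_cases h : σ i = i'
    · subst h; simp [S, hδ]
    · simp [S, h]
  have hDD : D * D = D := by
    rw [Matrix.diagonal_mul_diagonal]
    congr 1
    funext i
    split_ifs <;> simp
  have hred : E'.map red = D.map red := by
    have h1 : (E * P).map red = P.map red * D.map red := Matrix.ext fun c i => by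
      rw [Matrix.map_apply, heig, Matrix.diagonal_map (map_zero red), Matrix.mul_diagonal]
      split_ifs <;> simp
    have h2 : P⁻¹.map red * P.map red = 1 := by
      rw [← Matrix.map_mul, hQP, Matrix.map_one _ (map_zero red) (map_one red)]
    rw [hE', Matrix.mul_assoc, Matrix.map_mul, h1, ← Matrix.mul_assoc, h2, Matrix.one_mul]
  obtain ⟨Z, hZ⟩ : ∃ X, X = E' * D + (1 - E') * (1 - D) := ⟨_, rfl⟩
  have hZred : Z.map red = 1 := by
    have hDr : D.map red * D.map red = D.map red := by rw [← Matrix.map_mul, hDD]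
    show red.mapMatrix Z = 1
    rw [hZ, map_add, map_mul, map_mul, map_sub, map_sub, map_one, RingHom.mapMatrix_apply,
      RingHom.mapMatrix_apply, hred]
    simp only [sub_mul, mul_sub, one_mul, mul_one, hDr]
    abel
  have hZu : IsUnit Z.det := hu _ (by
    rw [RingHom.map_det, RingHom.mapMatrix_apply, hZred, Matrix.det_one]
    exact one_ne_zero)
  have hEZ : E' * Z = Z * D := by
    rw [hZ]
    calc E' * (E' * D + (1 - E') * (1 - D))
        = E' * E' * D + (E' - E' * E') * (1 - D) := by noncomm_ring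
      _ = E' * (D * D) + (1 - E') * (D - D * D) := by rw [hidem, hDD]; noncomm_ring
      _ = (E' * D + (1 - E') * (1 - D)) * D := by noncomm_ring
  have hSZ : S * Z = Z * S := by
    rw [hZ]
    simp only [mul_add, add_mul, sub_mul, mul_sub, one_mul, mul_one, ← Matrix.mul_assoc, hcomm]
    simp only [Matrix.mul_assoc, hSD]
  have hZQ : Z⁻¹ * Z = 1 := Matrix.nonsing_inv_mul _ hZu
  have hQZ : Z * Z⁻¹ = 1 := Matrix.mul_nonsing_inv _ hZu
  refine ⟨(Finset.univ.filter fun i => σ i = i ∧ δ i = true).card, ?_⟩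
  calc ∑ c, E (π c) c = Matrix.trace (Pi0 * E) := by simp [Matrix.trace, hl]
    _ = Matrix.trace (P⁻¹ * (Pi0 * E) * P) := by
        rw [Matrix.trace_mul_cycle, ← Matrix.mul_assoc, hPQ, Matrix.one_mul]
    _ = Matrix.trace (E' * S) := by
        rw [hPiE, Matrix.mul_assoc, Matrix.mul_assoc E, hPS]
        simp only [hE', Matrix.mul_assoc]
    _ = Matrix.trace (Z * D * Z⁻¹ * S) := by
        rw [← hEZ, Matrix.mul_assoc E', hQZ, Matrix.mul_one]
    _ = Matrix.trace (D * Z⁻¹ * (S * Z)) := by
        rw [Matrix.mul_assoc Z, Matrix.mul_assoc Z, Matrix.trace_mul_comm Z]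
        simp only [Matrix.mul_assoc]
    _ = Matrix.trace (D * S) := by
        rw [hSZ, Matrix.mul_assoc, ← Matrix.mul_assoc Z⁻¹, hZQ, Matrix.one_mul]
    _ = _ := by
        rw [← Finset.sum_boole]
        simp only [Matrix.trace, Matrix.diag, D, Matrix.diagonal_mul, S, Matrix.of_apply]
        refine Finset.sum_congr rfl fun i _ => ?_
        by_cases h1 : σ i = i <;> cases h2 : δ i <;> simp [h1]

theorem trace_perm_idempotent (hu : ∀ x : O, red x ≠ 0 → IsUnit x) {κ ι : Type*} [Fintype κ]
    [DecidableEq κ] [Fintype ι] [DecidableEq ι] (π : Equiv.Perm κ) (σ : Equiv.Perm ι)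
    (E : Matrix κ κ O) (P : Matrix κ ι O) (δ : ι → Bool)
    (hE : E * E = E) (hEπ : ∀ c c', E (π c) (π c') = E c c')
    (hP : ∀ c i, P (π c) i = P c (σ i)) (hinj : Function.Injective (P.map red).mulVec)
    (hsurj : Function.Surjective (P.map red).mulVec)
    (heig : ∀ c i, red ((E * P) c i) = if δ i then red (P c i) else 0)
    (hδ : ∀ i, δ (σ i) = δ i) :
    ∃ n : ℕ, ∑ c, E (π c) c = (n : O) := by
  classical
  have hcard : Fintype.card ι = Fintype.card κ := by
    have h := LinearEquiv.finrank_eq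
      (LinearEquiv.ofBijective (Matrix.mulVecLin (P.map red)) ⟨hinj, hsurj⟩)
    simpa [Module.finrank_pi] using h
  obtain ⟨e⟩ := Fintype.card_eq.1 hcard
  obtain ⟨n, hn⟩ := trace_perm_idempotent_square red hu (e.trans (π.trans e.symm)) σ
    (E.submatrix e e) (P.submatrix e id) δ
    (by rw [Matrix.submatrix_mul_equiv, hE])
    (fun c c' => by simp [hEπ])
    (fun c i => by simp [hP])
    (by
      rw [RingHom.map_det, RingHom.mapMatrix_apply]
      refine (Matrix.isUnit_iff_isUnit_det _).1
        (Matrix.mulVec_injective_iff_isUnit.1 fun v w h => hinj ?_) |>.ne_zero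
      funext c
      obtain ⟨i, rfl⟩ := e.surjective c
      exact congrFun h i)
    (fun c i => by
      rw [show (E.submatrix e e * P.submatrix e id) = (E * P).submatrix e id from
        Matrix.submatrix_mul_equiv E P e e id]
      exact heig _ _)
    hδ
  exact ⟨n, by rw [← hn, ← e.sum_comp]; simp⟩

end Cfsg.Agent.BlkRat
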