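import Cfsg.Agent.BlkRat.SimpleTraces
import Cfsg.Agent.BlkRat.TraceLift
import Cfsg.Agent.BrauerPairs.Subsections
import Cfsg.Agent.BlockVal.SectionCount
import Cfsg.Agent.Brauer.ResAlgClosed

/-!
The trace of a Galois twist on the part of a block belonging to one `p`-section is a natural
multiple of the order of the centralizer.
-/

noncomputable section

set_option autoImplicit false
set_option linter.style.haveILetI false
set_option linter.unusedSectionVars false

namespace Cfsg.Agent.BlkRat

open Cfsg MonoidAlgebra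
open Cfsg.Agent.Block
open scoped ComplexConjugate
open Cfsg.Agent.Brauer (regSum)

universe u

section Blocks

variable {H : Type u} [Group H] [Fintype H] {p : ℕ} {M : Ideal AlgInt}

open Classical in
/-- The column products of a set of characters. -/
def colSum (S : Set (IrrCharacter H)) (y z : H) : ℂ :=
  ∑ η ∈ Finset.univ.filter (· ∈ S), (η : H → ℂ) y * conj ((η : H → ℂ) z)

theorem colSum_conj_left (S : Set (IrrCharacter H)) (y z g : H) :
    colSum S (g * y * g⁻¹) z = colSum S y z := by
  simp only [colSum, fun η : IrrCharacter H => Char.irr_isClassFunction η.2 y g]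

theorem colSum_conj_right (S : Set (IrrCharacter H)) (y z g : H) :
    colSum S y (g * z * g⁻¹) = colSum S y z := by
  simp only [colSum, fun η : IrrCharacter H => Char.irr_isClassFunction η.2 z g]

theorem colSum_eq_zero_of_singular (hM : IsPModular p M) (S : Set (IrrCharacter H))
    (hint : ∀ g : H, MemLocalRing M (blockCoeff S g)) {y z : H} (hy : ¬ p ∣ orderOf y)
    (hz : p ∣ orderOf z) : colSum S y z = 0 := by
  classical
  have h := Brauer.weakOrth_of_integral hM S hint hy hz
  rw [finsum_mem_eq_toFinset_sum] at h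
  rw [colSum, ← h]
  exact Finset.sum_congr (by ext; simp) fun _ _ => rfl

theorem sum_regular_irr {θ : H → ℂ} (hθ : IsClassFunction H θ) {y : H} (hy : ¬ p ∣ orderOf y) :
    ∑ z ∈ Finset.univ.filter (fun z : H => ¬ p ∣ orderOf z),
      θ z * ∑ η : IrrCharacter H, (η : H → ℂ) y * conj ((η : H → ℂ) z) =
      (Nat.card H : ℂ) * θ y := by
  classical
  simp only [Char.sum_irr_mul_conj, mul_ite, mul_zero]
  rw [← Finset.sum_filter, Finset.filter_filter]
  have hset : (Finset.univ.filter fun z : H => ¬ p ∣ orderOf z ∧ IsConj y z) =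
      Finset.univ.filter fun z : H => IsConj y z := by
    ext z
    simp only [Finset.mem_filter, Finset.mem_univ, true_and, and_iff_right_iff_imp]
    intro h
    obtain ⟨g, rfl⟩ := isConj_iff.1 h
    rwa [← MulAut.conj_apply, MulEquiv.orderOf_eq]
  rw [hset, Finset.sum_congr rfl (g := fun _ => θ y *
      (Nat.card (Subgroup.centralizer ({y} : Set H)) : ℂ)) fun z hz => by
    obtain ⟨g, rfl⟩ := isConj_iff.1 (Finset.mem_filter.1 hz).2
    rw [hθ y g]]
  rw [Finset.sum_const, nsmul_eq_mul, mul_comm (θ y), ← mul_assoc, ← Nat.cast_mul]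
  congr 2
  convert Char.card_isConj_mul_card_centralizer y using 3
  ext; simp

theorem sum_colSum_mul_colSum (hM : IsPModular p M) (S : Set (IrrCharacter H))
    (hint : ∀ g : H, MemLocalRing M (blockCoeff S g)) {y y' : H} (hy : ¬ p ∣ orderOf y) :
    ∑ z ∈ Finset.univ.filter (fun z : H => ¬ p ∣ orderOf z), colSum S y z * colSum S z y' =
      (Nat.card H : ℂ) * colSum S y y' := by
  classical
  rw [Finset.sum_subset (Finset.subset_univ _) (fun z _ hz => by
    rw [colSum_eq_zero_of_singular hM S hint hy (by simpa using hz), zero_mul])]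
  simp only [colSum, Finset.sum_mul_sum]
  rw [Finset.sum_comm, Finset.mul_sum]
  refine Finset.sum_congr rfl fun η hη => ?_
  rw [Finset.sum_comm]
  have h1 : ∀ η' : IrrCharacter H, (∑ z : H, (η : H → ℂ) y * conj ((η : H → ℂ) z) *
      ((η' : H → ℂ) z * conj ((η' : H → ℂ) y'))) = (η : H → ℂ) y * conj ((η' : H → ℂ) y') *
        ((Nat.card H : ℂ) * if η' = η then 1 else 0) := by
    intro η'
    rw [← Char.classInner_irrCharacter, ← Char.sum_mul_conj_eq_card_mul_classInner,
      Finset.mul_sum]
    exact Finset.sum_congr rfl fun z _ => by ring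
  rw [Finset.sum_congr rfl fun η' _ => h1 η', Finset.sum_eq_single η]
  · rw [if_pos rfl]; ring
  · intro η' _ h
    rw [if_neg h]; ring
  · exact fun h => absurd hη h

/-- The action of the idempotent on class functions, seen at a regular element. -/
theorem sum_blockCoeff_mul (hM : IsPModular p M) (S : Set (IrrCharacter H))
    (hint : ∀ g : H, MemLocalRing M (blockCoeff S g)) {θ : H → ℂ} (hθ : IsClassFunction H θ)
    {y : H} (hy : ¬ p ∣ orderOf y) :
    ∑ w : H, blockCoeff S w * θ (w * y) = (Nat.card H : ℂ)⁻¹ *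
      ∑ z ∈ Finset.univ.filter (fun z : H => ¬ p ∣ orderOf z), colSum S y z * θ z := by
  classical
  rw [← BrauerPairs.blockPart_eq_sum_blockCoeff S hθ y, Finset.sum_subset (Finset.subset_univ _) (fun z _ hz => by
    rw [colSum_eq_zero_of_singular hM S hint hy (by simpa using hz), zero_mul]),
    BrauerPairs.blockPart_eq_sum]
  simp only [colSum, classInner, Finset.sum_mul, Finset.mul_sum]
  rw [Finset.sum_comm]
  refine Finset.sum_congr rfl fun z _ => ?_
  refine Finset.sum_congr (by ext; simp) fun η _ => ?_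
  ring

end Blocks

variable {G : Type u} [Group G] [Fintype G] {p : ℕ} {M : Ideal AlgInt}

section Induced

variable {x : G} {i : ℕ} {C : Subgroup G} [Fintype C]

/-- The characters of `C` in blocks inducing `B`. -/
def inducing (M : Ideal AlgInt) (C : Subgroup G) [Fintype C] (B : Set (IrrCharacter G)) :
    Set (IrrCharacter C) :=
  {θ | IsInducedBlock M C (blockOf M (θ : C → ℂ)) B}

theorem blockCoeff_inducing_mem [M.IsPrime] (B : Set (IrrCharacter G)) (g : C) :
    MemLocalRing M (blockCoeff (inducing M C B) g) := by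
  classical
  set S := Finset.univ.filter (· ∈ inducing M C B) with hS
  have h : blockCoeff (inducing M C B) g =
      ∑ b ∈ S.image (fun θ : IrrCharacter C => blockOf M (θ : C → ℂ)), blockCoeff b g := by
    simp only [blockCoeff, ← Finset.mul_sum]
    congr 1
    rw [finsum_mem_eq_toFinset_sum]
    rw [show (inducing M C B).toFinset = S by ext; simp [hS],
      ← Finset.sum_fiberwise_of_maps_to (t := S.image (fun θ : IrrCharacter C => blockOf M (θ : C → ℂ)))
        (g := fun θ : IrrCharacter C => blockOf M (θ : C → ℂ))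
        (fun θ hθ => Finset.mem_image_of_mem _ hθ)]
    refine Finset.sum_congr rfl fun b hb => ?_
    obtain ⟨θ0, hθ0, rfl⟩ := Finset.mem_image.1 hb
    rw [finsum_mem_eq_toFinset_sum]
    refine Finset.sum_congr ?_ fun _ _ => rfl
    ext η
    simp only [hS, Finset.mem_filter, Finset.mem_univ, true_and, Set.mem_toFinset]
    constructor
    · rintro ⟨-, h2⟩
      rw [← h2]
      exact sameBlock_refl _
    · intro hη
      have h2 := (blockOf_eq_of_sameBlock hη).symm
      refine ⟨?_, h2⟩
      have h3 : IsInducedBlock M C (blockOf M (θ0 : C → ℂ)) B := by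
        have h4 := hθ0
        simp only [hS, Finset.mem_filter, Finset.mem_univ, true_and] at h4
        exact h4
      show IsInducedBlock M C (blockOf M (η : C → ℂ)) B
      rw [h2]; exact h3
  rw [h]
  refine (localRing M).sum_mem fun b hb => ?_
  obtain ⟨θ0, -, rfl⟩ := Finset.mem_image.1 hb
  exact blockCoeff_memLocalRing (isPBlock_blockOf θ0) g

open Classical in
/-- Column products of `B` on the section of `x` are those of the inducing characters. -/
theorem section_colSum (hM : IsPModular p M) (hx : orderOf x = p ^ i)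
    (hC : C = Subgroup.centralizer ({x} : Set G)) {B : Set (IrrCharacter G)} (hB : IsPBlock M B)
    {y y' : C} (hy : ¬ p ∣ orderOf y) (hy' : ¬ p ∣ orderOf y') :
    colSum B (x * (y : G)) (x * (y' : G)) = colSum (inducing M C B) y y' := by
  haveI : M.IsPrime := hM.2.1.isPrime
  haveI : Fact p.Prime := ⟨hM.1⟩
  set f : IrrCharacter G → C → ℂ := fun χ z => (χ : G → ℂ) (x * (z : G)) with hf
  have hfc : ∀ χ, IsClassFunction C (f χ) := fun χ =>
    SecCount.classFun_shift hC (Char.irr_isClassFunction χ.2)
  have hPg : IsPGroup p (Subgroup.zpowers x) :=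
    IsPGroup.of_card (n := i) (by rw [Nat.card_zpowers, hx])
  have hCP : Subgroup.centralizer (Subgroup.zpowers x : Set G) = C :=
    (Brauer.centralizer_zpowers_eq x).trans hC.symm
  have hdef : ∀ θ : IrrCharacter C, ∃ B' : Set (IrrCharacter G),
      IsInducedBlock M C (blockOf M (θ : C → ℂ)) B' := fun θ =>
    inducedBlockDefined_of_brauer hM hPg (Subgroup.zpowers_le.mpr (SecCount.mem_C hC)) hCP.le
      (hCP ▸ Subgroup.centralizer_le_normalizer _) (isPBlock_blockOf θ)
  have hzero : ∀ (χ : IrrCharacter G) (θ : IrrCharacter C),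
      ¬ (χ ∈ B ↔ θ ∈ inducing M C B) → regSum p (f χ) (θ : C → ℂ) = 0 := by
    intro χ θ hne
    obtain ⟨B', hB'⟩ := hdef θ
    refine SecCount.regSum_section_eq_zero hM hx hC hB' ?_ (sameBlock_refl _)
    intro hχ'
    apply hne
    constructor
    · intro hχ
      show IsInducedBlock M C (blockOf M (θ : C → ℂ)) B
      rwa [pBlock_eq_of_mem hB hB'.2.1 hχ hχ']
    · intro h
      rwa [← isInducedBlock_unique hB' h]
  -- the projection of each section function
  have hproj : ∀ (χ : IrrCharacter G) (z : C), ¬ p ∣ orderOf z →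
      ∑ w ∈ Finset.univ.filter (fun w : C => ¬ p ∣ orderOf w),
        f χ w * colSum (inducing M C B) z w =
        if χ ∈ B then (Nat.card C : ℂ) * f χ z else 0 := by
    intro χ z hz
    have h1 : ∑ w ∈ Finset.univ.filter (fun w : C => ¬ p ∣ orderOf w),
        f χ w * colSum (inducing M C B) z w =
        ∑ θ ∈ Finset.univ.filter (· ∈ inducing M C B),
          regSum p (f χ) (θ : C → ℂ) * (θ : C → ℂ) z := by
      simp only [colSum, regSum, Finset.mul_sum, Finset.sum_mul]
      rw [Finset.sum_comm]
      refine Finset.sum_congr rfl fun θ _ => Finset.sum_congr (by ext; simp) fun w _ => ?_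
      ring
    rw [h1]
    split_ifs with hχ
    · rw [Finset.sum_subset (Finset.subset_univ _) (fun θ _ hθ => by
        rw [hzero χ θ (fun h => by simpa using hθ (Finset.mem_filter.2 ⟨Finset.mem_univ _, h.1 hχ⟩)),
          zero_mul])]
      rw [← sum_regular_irr (hfc χ) hz]
      simp only [regSum, Finset.sum_mul, Finset.mul_sum]
      rw [Finset.sum_comm]
      refine Finset.sum_congr (by ext; simp) fun w _ => Finset.sum_congr rfl fun θ _ => ?_
      ring
    · exact Finset.sum_eq_zero fun θ hθ => by
        rw [hzero χ θ (fun h => hχ (h.2 (Finset.mem_filter.1 hθ).2)), zero_mul]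
  have hcl : IsClassFunction C (fun w => colSum (inducing M C B) y w) := fun w g =>
    colSum_conj_right _ y w g
  have hne : (Nat.card C : ℂ) ≠ 0 := Nat.cast_ne_zero.2 Nat.card_pos.ne'
  refine mul_left_cancel₀ hne ?_
  calc (Nat.card C : ℂ) * colSum B (x * (y : G)) (x * (y' : G))
      = ∑ χ : IrrCharacter G, (if χ ∈ B then (Nat.card C : ℂ) * f χ y else 0) * conj (f χ y') := by
        simp only [colSum, Finset.mul_sum, ite_mul, zero_mul, ← Finset.sum_filter]
        exact Finset.sum_congr rfl fun χ _ => by simp only [hf]; ring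
    _ = ∑ w ∈ Finset.univ.filter (fun w : C => ¬ p ∣ orderOf w),
          colSum (inducing M C B) y w *
            ∑ χ : IrrCharacter G, f χ w * conj (f χ y') := by
        rw [Finset.sum_congr rfl fun χ _ => by rw [← hproj χ y hy, Finset.sum_mul],
          Finset.sum_comm]
        refine Finset.sum_congr rfl fun w _ => ?_
        rw [Finset.mul_sum]
        exact Finset.sum_congr rfl fun χ _ => by ring
    _ = _ := by
        rw [← sum_regular_irr hcl hy']
        refine Finset.sum_congr rfl fun w hw => ?_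
        congr 1
        rw [hf, SecCount.sum_irr_section hM hx hC w y' (Finset.mem_filter.1 hw).2 hy',
          Char.sum_irr_mul_conj, Char.sum_irr_mul_conj]
        by_cases h : IsConj w y'
        · rw [if_pos h, if_pos h.symm]
          obtain ⟨g, rfl⟩ := isConj_iff.1 h
          rw [Nat.cast_inj]
          exact Nat.card_congr
            { toFun := fun v => ⟨g * v * g⁻¹, Subgroup.mem_centralizer_singleton_iff.2 (by
                have := Subgroup.mem_centralizer_singleton_iff.1 v.2
                calc g * v * g⁻¹ * (g * w * g⁻¹) = g * (v * w) * g⁻¹ := by group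
                  _ = g * (w * v) * g⁻¹ := by rw [this]
                  _ = _ := by group)⟩
              invFun := fun v => ⟨g⁻¹ * v * g, Subgroup.mem_centralizer_singleton_iff.2 (by
                have := Subgroup.mem_centralizer_singleton_iff.1 v.2
                calc g⁻¹ * v * g * w = g⁻¹ * (v * (g * w * g⁻¹)) * g := by group
                  _ = g⁻¹ * (g * w * g⁻¹ * v) * g := by rw [this]
                  _ = _ := by group)⟩
              left_inv := fun v => Subtype.ext (by group)
              right_inv := fun v => Subtype.ext (by group) }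
        · rw [if_neg h, if_neg (fun h' => h h'.symm)]

/-- The regular classes. -/
def RegClass (p : ℕ) (H : Type*) [Group H] : Type _ :=
  {c : ConjClasses H // ¬ p ∣ orderOf c.out}

theorem reg_of_mk_eq {H : Type*} [Group H] {y z : H} (h : ConjClasses.mk y = ConjClasses.mk z) :
    orderOf y = orderOf z := by
  obtain ⟨g, rfl⟩ := isConj_iff.1 (ConjClasses.mk_eq_mk_iff_isConj.1 h)
  rw [← MulAut.conj_apply, MulEquiv.orderOf_eq]

set_option maxHeartbeats 1600000 in
/-- The twist acts on a section with natural trace. -/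
theorem section_trace (hM : IsPModular p M) (hx : orderOf x = p ^ i)
    (hC : C = Subgroup.centralizer ({x} : Set G)) {B : Set (IrrCharacter G)} (hB : IsPBlock M B)
    {k : ℕ} {h : G} (hk : k.Coprime (Nat.card G)) (hconj : h * x * h⁻¹ = x ^ k)
    (hkreg : ∀ y : G, ¬ p ∣ orderOf y → y ^ k = y) (tw : IrrCharacter G ≃ IrrCharacter G)
    (htw : ∀ χ g, ((tw χ : IrrCharacter G) : G → ℂ) g = (χ : G → ℂ) (g ^ k))
    (htwB : ∀ χ, tw χ ∈ B ↔ χ ∈ B) :
    ∃ n : ℕ, ∑ y ∈ Finset.univ.filter (fun y : C => ¬ p ∣ orderOf y),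
      colSum B ((x * (y : G)) ^ k) (x * (y : G)) = (Nat.card C : ℂ) * n := by
  classical
  haveI : M.IsPrime := hM.2.1.isPrime
  haveI : Fact p.Prime := ⟨hM.1⟩
  haveI := charP_resF hM
  haveI := Brauer.isAlgClosed_resF (M := M) hM.2.1
  -- `h` normalizes the centralizer
  have hxk : x ∈ Subgroup.zpowers (x ^ k) := by
    obtain ⟨j, hj⟩ := exists_pow_eq_self_of_coprime (x := x)
      (hk.coprime_dvd_right (orderOf_dvd_natCard x))
    exact ⟨(j : ℤ), by simp [hj]⟩
  have hCk : ∀ v : G, v ∈ C ↔ Commute v (x ^ k) := fun v => by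
    rw [hC, Subgroup.mem_centralizer_singleton_iff]
    refine ⟨fun hv => Commute.pow_right hv k, fun hv => ?_⟩
    obtain ⟨j, hj⟩ := hxk
    rw [← hj]
    exact (hv.zpow_right j).eq
  have hCx : ∀ v : G, v ∈ C ↔ Commute v x := fun v => by
    rw [hC, Subgroup.mem_centralizer_singleton_iff]; rfl
  let α : C ≃* C :=
    { toFun := fun v => ⟨h⁻¹ * v * h, (hCx _).2 (by
        have hv := (hCk v).1 v.2
        rw [← hconj] at hv
        calc h⁻¹ * v * h * x = h⁻¹ * ((v : G) * (h * x * h⁻¹)) * h := by group
          _ = h⁻¹ * (h * x * h⁻¹ * v) * h := by rw [hv.eq]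
          _ = x * (h⁻¹ * v * h) := by group)⟩
      invFun := fun v => ⟨h * v * h⁻¹, (hCk _).2 (by
        have hv := (hCx v).1 v.2
        rw [← hconj]
        calc h * v * h⁻¹ * (h * x * h⁻¹) = h * ((v : G) * x) * h⁻¹ := by group
          _ = h * (x * v) * h⁻¹ := by rw [hv.eq]
          _ = h * x * h⁻¹ * (h * v * h⁻¹) := by group)⟩
      left_inv := fun v => Subtype.ext (by group)
      right_inv := fun v => Subtype.ext (by group)
      map_mul' := fun v w => Subtype.ext (by simp; group) }
  have hα : ∀ v, ¬ p ∣ orderOf v → ¬ p ∣ orderOf (α v) := fun v hv => by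
    rwa [MulEquiv.orderOf_eq]
  have hpow : ∀ (y : C), ¬ p ∣ orderOf y →
      (x * (y : G)) ^ k = h * (x * (α y : G)) * h⁻¹ := by
    intro y hy
    have hc : Commute x (y : G) := ((hCx y).1 y.2).symm
    rw [hc.mul_pow, hkreg (y : G) (by rw [Subgroup.orderOf_coe]; exact hy), ← hconj]
    show h * x * h⁻¹ * (y : G) = h * (x * (h⁻¹ * (y : G) * h)) * h⁻¹
    group
  set 𝔅 := inducing M C B
  have hint : ∀ g : C, MemLocalRing M (blockCoeff 𝔅 g) := blockCoeff_inducing_mem B
  have hK : ∀ {y z : C}, ¬ p ∣ orderOf y → ¬ p ∣ orderOf z →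
      colSum B (x * (y : G)) (x * (z : G)) = colSum 𝔅 y z := fun hy hz =>
    section_colSum hM hx hC hB hy hz
  have hinv : ∀ {y z : C}, ¬ p ∣ orderOf y → ¬ p ∣ orderOf z →
      colSum 𝔅 (α y) (α z) = colSum 𝔅 y z := by
    intro y z hy hz
    rw [← hK hy hz, ← hK (hα y hy) (hα z hz)]
    simp only [colSum]
    refine Finset.sum_equiv tw (fun χ => by simp [htwB]) fun χ _ => ?_
    rw [htw, htw, hpow y hy, hpow z hz, Char.irr_isClassFunction χ.2, Char.irr_isClassFunction χ.2]
  -- matrices
  haveI : Finite (ConjClasses C) := Finite.of_surjective _ ConjClasses.mk_surjective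
  haveI : Finite (RegClass p C) := Subtype.finite
  letI : Fintype (RegClass p C) := Fintype.ofFinite _
  obtain ⟨n, τ, hτ⟩ := exists_traceBasis (ResF M) C p
  obtain ⟨sec, hsec⟩ := (red_surjective (M := M)).hasRightInverse
  let cls : (y : C) → ¬ p ∣ orderOf y → RegClass p C := fun y hy =>
    ⟨ConjClasses.mk y, by rw [reg_of_mk_eq (Quotient.out_eq (ConjClasses.mk y))]; exact hy⟩
  let πf : RegClass p C → RegClass p C := fun c => cls (α c.1.out) (hα _ c.2)
  have hπinj : Function.Injective πf := by
    intro c c' hcc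
    obtain ⟨g, hg⟩ := isConj_iff.1 (ConjClasses.mk_eq_mk_iff_isConj.1 (congrArg Subtype.val hcc))
    apply Subtype.ext
    rw [← Quotient.out_eq c.1, ← Quotient.out_eq c'.1]
    refine ConjClasses.mk_eq_mk_iff_isConj.2 (isConj_iff.2 ⟨α.symm g, α.injective ?_⟩)
    simpa using hg
  let π : Equiv.Perm (RegClass p C) := Equiv.ofBijective πf (Finite.injective_iff_bijective.1 hπinj)
  let e : C → localRing M := fun w => ⟨blockCoeff 𝔅 w, hint w⟩
  let E : Matrix (RegClass p C) (RegClass p C) (localRing M) := Matrix.of fun c c' =>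
    ∑ w : C, if ConjClasses.mk (w * c.1.out) = c'.1 then e w else 0
  let Pm : Matrix (RegClass p C) (Fin n) (localRing M) := Matrix.of fun c j => sec (τ j c.1.out)
  have hclass_fn : ∀ {β : Type} (F : C → β), (∀ g v, F (v * g * v⁻¹) = F g) →
      ∀ {y z : C}, ConjClasses.mk y = ConjClasses.mk z → F y = F z := by
    intro β F hF y z hyz
    obtain ⟨g, rfl⟩ := isConj_iff.1 (ConjClasses.mk_eq_mk_iff_isConj.1 hyz)
    rw [hF]
  -- indicator of a class
  have hindc : ∀ c' : RegClass p C,
      IsClassFunction C (fun v : C => if ConjClasses.mk v = c'.1 then (1 : ℂ) else 0) := by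
    intro c' v g
    simp only [show ConjClasses.mk (g * v * g⁻¹) = ConjClasses.mk v from
      ConjClasses.mk_eq_mk_iff_isConj.2 (isConj_iff.2 ⟨g, rfl⟩).symm]
  have hEc : ∀ c c', ((E c c' : localRing M) : ℂ) = (Nat.card C : ℂ)⁻¹ *
      ∑ z ∈ Finset.univ.filter (fun z : C => ¬ p ∣ orderOf z),
        colSum 𝔅 c.1.out z * if ConjClasses.mk z = c'.1 then 1 else 0 := by
    intro c c'
    rw [← sum_blockCoeff_mul hM 𝔅 hint (hindc c') c.2]
    simp only [E, Matrix.of_apply, AddSubmonoidClass.coe_finsetSum]
    refine Finset.sum_congr rfl fun w _ => ?_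
    split_ifs <;> simp [e]
  have happly : ∀ (θ : C → ℂ), IsClassFunction C θ → ∀ c,
      ∑ c', ((E c c' : localRing M) : ℂ) * θ c'.1.out = (Nat.card C : ℂ)⁻¹ *
        ∑ z ∈ Finset.univ.filter (fun z : C => ¬ p ∣ orderOf z), colSum 𝔅 c.1.out z * θ z := by
    intro θ hθ c
    simp only [hEc, mul_assoc, Finset.sum_mul, ← Finset.mul_sum]
    congr 1
    rw [Finset.sum_comm]
    refine Finset.sum_congr rfl fun z hz => ?_
    rw [← Finset.mul_sum]
    congr 1
    have hz' := (Finset.mem_filter.1 hz).2
    rw [Finset.sum_eq_single (cls z hz')]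
    · rw [if_pos rfl, one_mul]
      exact hclass_fn θ hθ (Quotient.out_eq _)
    · intro b _ hb
      rw [if_neg (fun h => hb (Subtype.ext h.symm)), zero_mul]
    · simp
  have hEE : E * E = E := by
    refine Matrix.ext fun c c'' => Subtype.ext ?_
    rw [Matrix.mul_apply, AddSubmonoidClass.coe_finsetSum]
    simp only [Subring.coe_mul, hEc _ c'']
    have hcl : IsClassFunction C (fun v : C => (Nat.card C : ℂ)⁻¹ *
        ∑ z ∈ Finset.univ.filter (fun z : C => ¬ p ∣ orderOf z),
          colSum 𝔅 v z * if ConjClasses.mk z = c''.1 then 1 else 0) := fun v g => by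
      simp only [colSum_conj_left]
    rw [happly _ hcl c]
    congr 1
    have h1 : ∀ v : C, colSum 𝔅 c.1.out v * ((Nat.card C : ℂ)⁻¹ *
        ∑ z ∈ Finset.univ.filter (fun z : C => ¬ p ∣ orderOf z),
          colSum 𝔅 v z * if ConjClasses.mk z = c''.1 then 1 else 0) =
        ∑ z ∈ Finset.univ.filter (fun z : C => ¬ p ∣ orderOf z), (Nat.card C : ℂ)⁻¹ *
          (colSum 𝔅 c.1.out v * colSum 𝔅 v z) * if ConjClasses.mk z = c''.1 then 1 else 0 := by
      intro v
      simp only [Finset.mul_sum]
      exact Finset.sum_congr rfl fun z _ => by ring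
    simp only [h1]
    rw [Finset.sum_comm]
    refine Finset.sum_congr rfl fun z _ => ?_
    rw [← Finset.sum_mul, ← Finset.mul_sum, sum_colSum_mul_colSum hM 𝔅 hint c.2,
      inv_mul_cancel_left₀ (Nat.cast_ne_zero.2 Nat.card_pos.ne')]
  have hπout : ∀ c : RegClass p C, ConjClasses.mk (π c).1.out = ConjClasses.mk (α c.1.out) :=
    fun c => Quotient.out_eq _
  have hEπ : ∀ c c', E (π c) (π c') = E c c' := by
    intro c c'
    refine Subtype.ext ?_
    rw [hEc, hEc]
    congr 1
    symm
    refine Finset.sum_equiv α.toEquiv (fun z => by simp) fun z hz => ?_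
    show _ = colSum 𝔅 (π c).1.out (α z) * if ConjClasses.mk (α z) = (π c').1 then 1 else 0
    rw [hclass_fn (fun v => colSum 𝔅 v (α z)) (fun v g => colSum_conj_left _ _ _ _) (hπout c)]
    show _ = colSum 𝔅 (α c.1.out) (α z) * _
    rw [hinv c.2 (Finset.mem_filter.1 hz).2]
    congr 1
    refine if_congr ?_ rfl rfl
    show ConjClasses.mk z = c'.1 ↔ ConjClasses.mk (α z) = ConjClasses.mk (α c'.1.out)
    conv_lhs => rw [← Quotient.out_eq c'.1]
    refine (ConjClasses.mk_eq_mk_iff_isConj (b := c'.1.out)).trans ?_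
    rw [ConjClasses.mk_eq_mk_iff_isConj]
    exact ⟨fun hh => α.toMonoidHom.map_isConj hh, fun hh => by
      simpa using α.symm.toMonoidHom.map_isConj hh⟩
  obtain ⟨σ, hσ⟩ := hτ.perm α
  have hPπ : ∀ c j, Pm (π c) j = Pm c (σ j) := fun c j => by
    show sec (τ j (π c).1.out) = sec (τ (σ j) c.1.out)
    rw [hclass_fn (fun v => τ j v) (hτ.cls j) (hπout c), hσ]
  have hsec' : ∀ a, red M (sec a) = a := hsec
  have hinj : Function.Injective (Pm.map (red M)).mulVec := by
    intro v v' hv
    rw [← sub_eq_zero]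
    refine hτ.indep _ fun g hg => ?_
    have h1 := congrFun hv (cls g hg)
    simp only [Matrix.mulVec, dotProduct, Matrix.map_apply, Pm, Matrix.of_apply, hsec'] at h1
    simp only [Pi.sub_apply, sub_mul, Finset.sum_sub_distrib, sub_eq_zero]
    rw [show (cls g hg).1.out = _ from rfl] at h1
    have h2 : ∀ j, τ j (cls g hg).1.out = τ j g := fun j =>
      hclass_fn (fun w => τ j w) (hτ.cls j) (Quotient.out_eq _)
    simpa [h2, mul_comm] using h1
  have hsurj : Function.Surjective (Pm.map (red M)).mulVec := by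
    intro v
    obtain ⟨c, hc⟩ := hτ.span (fun g => if hg : ¬ p ∣ orderOf g then v (cls g hg) else 0)
      (fun g w => by
        have ho : orderOf (w * g * w⁻¹) = orderOf g := by rw [← MulAut.conj_apply, MulEquiv.orderOf_eq]
        by_cases hg : p ∣ orderOf g
        · rw [dif_neg (by simp [ho, hg]), dif_neg (by simp [hg])]
        · rw [dif_pos (by rwa [ho]), dif_pos hg]
          congr 1
          exact Subtype.ext (ConjClasses.mk_eq_mk_iff_isConj.2 (isConj_iff.2 ⟨w, rfl⟩).symm))
    refine ⟨c, funext fun cl => ?_⟩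
    simp only [Matrix.mulVec, dotProduct, Matrix.map_apply, Pm, Matrix.of_apply, hsec']
    have h1 := hc cl.1.out cl.2
    rw [dif_pos cl.2, show cls cl.1.out cl.2 = cl from Subtype.ext (Quotient.out_eq _)] at h1
    rw [h1]
    exact Finset.sum_congr rfl fun j _ => mul_comm _ _
  -- the idempotent over the residue field
  let eS : MonoidAlgebra (localRing M) C := ofFn e
  have heS : toC M eS = blockIdem 𝔅 := groupAlgebra_ext fun g => by
    rw [coeff_mapR, coeff_blockIdem, coeff_ofFn]; rfl
  have heS2 : eS * eS = eS := toC_injective M (by rw [map_mul, heS, blockIdem_mul_self])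
  have heSc : IsCentralElt eS := fun g v => by
    simp only [eS, coeff_ofFn]
    exact Subtype.ext (blockCoeff_conj_invariant 𝔅 g v)
  have heFc : ∀ g, (toF M eS).coeff g = red M (e g) := fun g => by
    rw [coeff_mapR, coeff_ofFn]
  obtain ⟨δ, hδ⟩ := hτ.eig (toF M eS) (by rw [← map_mul, heS2])
    (fun a => isCentralElt_commute (heSc.mapR _) a)
  simp only [heFc] at hδ
  have heig : ∀ c j, red M ((E * Pm) c j) = if δ j then red M (Pm c j) else 0 := by
    intro c j
    have h1 : (E * Pm) c j = ∑ w : C, e w * sec (τ j (w * c.1.out)) := by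
      refine Subtype.ext ?_
      have hθ : IsClassFunction C (fun v : C => ((sec (τ j v) : localRing M) : ℂ)) := fun v g => by
        simp only [hτ.cls]
      rw [Matrix.mul_apply, AddSubmonoidClass.coe_finsetSum, AddSubmonoidClass.coe_finsetSum]
      simp only [Subring.coe_mul]
      show ∑ c', ((E c c' : localRing M) : ℂ) * ((sec (τ j c'.1.out) : localRing M) : ℂ) = _
      rw [happly _ hθ c, ← sum_blockCoeff_mul hM 𝔅 hint hθ c.2]
    rw [h1, map_sum]
    simp only [map_mul, hsec']
    rw [hδ]
    show _ = if δ j then red M (sec (τ j c.1.out)) else 0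
    rw [hsec']
  have heα : ∀ w : C, e (α w) = e w := by
    intro w
    refine Subtype.ext ?_
    show blockCoeff 𝔅 (α w) = blockCoeff 𝔅 w
    have h1 : ∀ v, blockCoeff 𝔅 v = (Nat.card C : ℂ)⁻¹ * colSum 𝔅 1 v := fun v => by
      rw [blockCoeff, colSum, finsum_mem_eq_toFinset_sum]
      exact congrArg _ (Finset.sum_congr (by ext; simp) fun _ _ => rfl)
    by_cases hw : p ∣ orderOf w
    · rw [Brauer.blockCoeff_eq_zero_of_integral hM 𝔅 hint hw,
        Brauer.blockCoeff_eq_zero_of_integral hM 𝔅 hint (by rwa [MulEquiv.orderOf_eq])]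
    · rw [h1, h1, ← hinv (y := 1) (by simpa using hM.1.ne_one) hw, map_one]
  have hδσ : ∀ j, δ (σ j) = δ j := by
    intro j
    have hne : ∃ g, τ (σ j) g ≠ 0 := by
      by_contra hc
      push Not at hc
      have h1 := hτ.indep (Pi.single (σ j) 1) fun g _ => Finset.sum_eq_zero fun l _ => by
        rcases eq_or_ne l (σ j) with rfl | hl
        · rw [hc, mul_zero]
        · rw [Pi.single_eq_of_ne hl, zero_mul]
      simpa using congrFun h1 (σ j)
    obtain ⟨g, hg⟩ := hne
    have h1 := hδ j (α g)
    rw [← Equiv.sum_comp α.toEquiv] at h1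
    simp only [MulEquiv.toEquiv_eq_coe, EquivLike.coe_coe,
      fun a b : C => (map_mul α a b).symm, hσ, heα] at h1
    rw [hδ (σ j) g] at h1
    cases hA : δ (σ j) <;> cases hB' : δ j
    all_goals first
      | rfl
      | (rw [hA, hB'] at h1
         simp only [Bool.false_eq_true, if_false, if_true] at h1
         first | exact absurd h1 hg | exact absurd h1.symm hg)
  obtain ⟨N, hN⟩ := trace_perm_idempotent (red M)
    (fun a ha => isUnit_iff_red_ne_zero.2 ha) π σ E Pm δ hEE hEπ hPπ hinj hsurj heig hδσ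
  refine ⟨N, ?_⟩
  have hN' := congrArg (fun a : localRing M => (a : ℂ)) hN
  simp only [AddSubmonoidClass.coe_finsetSum, hEc, ← Finset.mul_sum] at hN'
  rw [show ((N : localRing M) : ℂ) = (N : ℂ) from map_natCast (localRing M).subtype N,
    inv_mul_eq_iff_eq_mul₀ (Nat.cast_ne_zero.2 Nat.card_pos.ne')] at hN'
  rw [← hN', Finset.sum_comm]
  refine Finset.sum_congr rfl fun y hy => ?_
  have hy' := (Finset.mem_filter.1 hy).2
  rw [Finset.sum_eq_single (cls y hy')]
  · rw [if_pos rfl, mul_one, hclass_fn (fun v => colSum 𝔅 v y) (fun v g => colSum_conj_left _ _ _ _)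
      (hπout _)]
    rw [hclass_fn (fun v => colSum 𝔅 (α v) y) (fun v g => by
        rw [map_mul, map_mul, map_inv, colSum_conj_left])
      (Quotient.out_eq (ConjClasses.mk y)), ← hK (hα y hy') hy']
    simp only [colSum, hpow y hy', fun χ : IrrCharacter G =>
      Char.irr_isClassFunction χ.2 (x * (α y : G)) h]
  · intro b _ hb
    rw [if_neg (fun h => hb (Subtype.ext h.symm)), mul_zero]
  · simp

end Induced

end Cfsg.Agent.BlkRat
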