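import Cfsg.Agent.Brauer.FrobTrace
import Mathlib.RingTheory.SimpleModule.IsAlgClosed
import Mathlib.RingTheory.Jacobson.Semiprimary
import Mathlib.RingTheory.Artinian.Module
import Mathlib.RingTheory.Artinian.Ring
import Mathlib.LinearAlgebra.Matrix.Trace
import Mathlib.FieldTheory.Finiteness
import Mathlib.RingTheory.SimpleRing.Matrix
import Mathlib.RingTheory.Nilpotent.Lemmas
import Mathlib.FieldTheory.Finite.Basic
import Mathlib.Algebra.CharP.Algebra
import Cfsg.Agent.BrauerPairs.BrauerMap

/-!
Traces of the simple quotients of a group algebra in characteristic `p`: they form a basis of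
the class functions on the `p`-regular elements, permuted by automorphisms, and eigenvectors
for central idempotents.
-/

noncomputable section

set_option autoImplicit false
set_option linter.style.haveILetI false
set_option linter.unusedSectionVars false

namespace Cfsg.Agent.BlkRat

open MonoidAlgebra

universe u v

variable {F : Type v} [Field F] {H : Type u} [Group H] [Fintype H] {p : ℕ} [hp : Fact p.Prime]

variable (H p) in
/-- A power of `p` projecting each element to its `p`-regular part. -/
theorem exists_regExp : ∃ n : ℕ, (∀ g : H, ¬ p ∣ orderOf (g ^ p ^ n)) ∧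
    (∀ g : H, ¬ p ∣ orderOf g → g ^ p ^ n = g) := by
  set N := Nat.card H with hN
  set a := N.factorization p
  set m := N / p ^ a with hm
  have hN0 : N ≠ 0 := Nat.card_pos.ne'
  have hmp : ¬ p ∣ m := Nat.not_dvd_ordCompl hp.out hN0
  have hm0 : m ≠ 0 := fun h => hmp (h ▸ dvd_zero p)
  have ht : 1 ≤ Nat.totient m := Nat.totient_pos.2 (Nat.pos_of_ne_zero hm0)
  refine ⟨a * Nat.totient m, fun g hd => ?_, fun g hg => ?_⟩
  · have hle : a ≤ a * Nat.totient m := Nat.le_mul_of_pos_right _ ht
    have h1 : (g ^ p ^ (a * Nat.totient m)) ^ m = 1 := by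
      rw [← pow_mul]
      refine orderOf_dvd_iff_pow_eq_one.1 ((orderOf_dvd_natCard g).trans ?_)
      rw [← hN, ← Nat.ordProj_mul_ordCompl_eq_self N p]
      exact mul_dvd_mul_right (pow_dvd_pow p hle) _
    exact hmp (hd.trans (orderOf_dvd_iff_pow_eq_one.2 h1))
  · have hdm : orderOf g ∣ m := by
      refine ((hp.out.coprime_iff_not_dvd.2 hg).pow_left a).symm.dvd_of_dvd_mul_left ?_
      rw [hm, Nat.ordProj_mul_ordCompl_eq_self N p]
      exact orderOf_dvd_natCard g
    have hcop : p.Coprime m := hp.out.coprime_iff_not_dvd.2 hmp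
    have h2 : p ^ (a * Nat.totient m) ≡ 1 [MOD m] := by
      rw [mul_comm, pow_mul]
      simpa using (Nat.ModEq.pow_totient hcop).pow a
    conv_rhs => rw [← pow_one g]
    exact pow_eq_pow_iff_modEq.2 (h2.of_dvd hdm)

/-- A matrix with nilpotent left multiples vanishes. -/
theorem eq_zero_of_forall_isNilpotent {d : ℕ} {X : Matrix (Fin d) (Fin d) F}
    (h : ∀ Y : Matrix (Fin d) (Fin d) F, IsNilpotent (Y * X)) : X = 0 := by
  classical
  refine Matrix.ext fun i j => ?_
  have h1 := (Matrix.isNilpotent_trace_of_isNilpotent (h (Matrix.single j i (1 : F)))).eq_zero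
  have h2 : Matrix.trace (Matrix.single j i (1 : F) * X) = X i j := by
    rw [Matrix.trace, Finset.sum_eq_single j]
    · simp [Matrix.diag]
    · intro b _ hb
      simp [Matrix.diag, Matrix.single_mul_apply_of_ne _ _ _ _ _ hb]
    · simp
  rw [h2] at h1
  exact h1

/-- A symmetric linear form on matrices is a multiple of the trace. -/
theorem symm_form_eq {d : ℕ} (μ : Matrix (Fin d) (Fin d) F →ₗ[F] F)
    (hμ : ∀ X Y, μ (X * Y) = μ (Y * X)) (i0 : Fin d) (X : Matrix (Fin d) (Fin d) F) :
    μ X = μ (Matrix.single i0 i0 1) * Matrix.trace X := by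
  classical
  have h1 : ∀ i j, μ (Matrix.single i j (1 : F)) =
      if i = j then μ (Matrix.single i0 i0 1) else 0 := by
    intro i j
    rw [show Matrix.single i j (1 : F) = Matrix.single i i0 1 * Matrix.single i0 j 1 by simp, hμ]
    split_ifs with h
    · subst h; simp
    · rw [Matrix.single_mul_single_of_ne _ _ _ _ (Ne.symm h), map_zero]
  conv_lhs => rw [Matrix.matrix_eq_sum_single X]
  simp only [map_sum]
  have h2 : ∀ i j, μ (Matrix.single i j (X i j)) =
      X i j * (if i = j then μ (Matrix.single i0 i0 1) else 0) := fun i j => by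
    rw [← h1, ← smul_eq_mul, ← map_smul, Matrix.smul_single, smul_eq_mul, mul_one]
  simp only [h2, mul_ite, mul_zero, Finset.sum_ite_eq, Finset.mem_univ, if_true, Matrix.trace,
    Matrix.diag, Finset.mul_sum]
  exact Finset.sum_congr rfl fun i _ => mul_comm _ _

/-- An idempotent `Q ≠ 0` with `Q Y Q` always a multiple of `Q` has trace one. -/
theorem trace_eq_one_of_corner {d : ℕ} {Q : Matrix (Fin d) (Fin d) F} (hQ : Q * Q = Q) (h0 : Q ≠ 0)
    (h : ∀ Y : Matrix (Fin d) (Fin d) F, ∃ c : F, Q * Y * Q = c • Q) : Matrix.trace Q = 1 := by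
  classical
  obtain ⟨a, b, hab⟩ : ∃ a b, Q a b ≠ 0 := by
    by_contra hc
    push Not at hc
    exact h0 (Matrix.ext hc)
  obtain ⟨c, hc⟩ := h (Matrix.single b a 1)
  have hent : ∀ i j, Q i b * Q a j = c * Q i j := by
    intro i j
    have := congrFun (congrFun hc i) j
    simp only [Matrix.smul_apply, smul_eq_mul] at this
    rw [← this, Matrix.mul_apply, Finset.sum_eq_single a]
    · simp
    · intro x _ hx
      simp [Matrix.mul_single_apply_of_ne _ _ _ _ _ hx]
    · simp
  have hc0 : c = Q a b := by
    have := hent a b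
    exact (mul_right_cancel₀ hab this).symm
  have h2 : c * Matrix.trace Q = c := by
    rw [Matrix.trace, Finset.mul_sum]
    simp only [Matrix.diag, ← hent]
    rw [hc0]
    conv_rhs => rw [← hQ, Matrix.mul_apply]
    exact Finset.sum_congr rfl fun i _ => mul_comm _ _
  exact mul_left_cancel₀ (hc0 ▸ hab) (h2.trans (mul_one c).symm)

variable [IsAlgClosed F]

variable (F H) in
/-- The semisimple quotient as a product of matrix algebras. -/
theorem exists_wedderburn : ∃ (n : ℕ) (d : Fin n → ℕ)
    (π : MonoidAlgebra F H →ₐ[F] Π i, Matrix (Fin (d i)) (Fin (d i)) F),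
    (∀ i, 0 < d i) ∧ Function.Surjective π ∧
      (∀ a, π a = 0 → ∀ b, IsNilpotent (b * a)) := by
  haveI : FiniteDimensional F (MonoidAlgebra F H) :=
    Module.Finite.of_basis (MonoidAlgebra.basis H F)
  haveI : IsArtinianRing (MonoidAlgebra F H) := IsArtinianRing.of_finite F _
  haveI : IsSemisimpleRing (MonoidAlgebra F H ⧸ Ring.jacobson (MonoidAlgebra F H)) :=
    IsSemiprimaryRing.isSemisimpleRing
  obtain ⟨n, d, hd, ⟨E⟩⟩ := IsSemisimpleRing.exists_algEquiv_pi_matrix_of_isAlgClosed F
    (MonoidAlgebra F H ⧸ Ring.jacobson (MonoidAlgebra F H))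
  refine ⟨n, d, E.toAlgHom.comp (Ideal.Quotient.mkₐ F _), fun i => Nat.pos_of_ne_zero (hd i).out,
    E.surjective.comp Ideal.Quotient.mk_surjective, fun a ha b => ?_⟩
  have ha' : a ∈ Ring.jacobson (MonoidAlgebra F H) :=
    Ideal.Quotient.eq_zero_iff_mem.1 (E.injective (by simpa using ha))
  have hJ := IsSemiprimaryRing.isNilpotent (R := MonoidAlgebra F H)
  obtain ⟨N, hN⟩ := hJ
  have hmem : (b * a) ^ N ∈ (Ring.jacobson (MonoidAlgebra F H)) ^ N :=
    Ideal.pow_mem_pow (Ideal.mul_mem_left _ b ha') N
  rw [hN] at hmem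
  exact ⟨N, by simpa using hmem⟩

variable (H p) in
/-- The basis of simple traces, with its properties. -/
structure TraceBasis (F : Type v) [Field F] (n : ℕ) (τ : Fin n → H → F) : Prop where
  cls : ∀ i g h, τ i (h * g * h⁻¹) = τ i g
  span : ∀ f : H → F, (∀ g h, f (h * g * h⁻¹) = f g) →
    ∃ c : Fin n → F, ∀ g, ¬ p ∣ orderOf g → f g = ∑ i, c i * τ i g
  indep : ∀ c : Fin n → F, (∀ g, ¬ p ∣ orderOf g → ∑ i, c i * τ i g = 0) → c = 0
  perm : ∀ α : H ≃* H, ∃ σ : Equiv.Perm (Fin n), ∀ i g, τ i (α g) = τ (σ i) g
  eig : ∀ e : MonoidAlgebra F H, e * e = e → (∀ a, e * a = a * e) →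
    ∃ δ : Fin n → Bool, ∀ i g, ∑ k : H, e.coeff k * τ i (k * g) = if δ i then τ i g else 0

variable (F H p) in
theorem exists_traceBasis [CharP F p] : ∃ (n : ℕ) (τ : Fin n → H → F), TraceBasis H p F n τ := by
  classical
  obtain ⟨n, d, π, hd, hsurj, hnil⟩ := exists_wedderburn F H
  obtain ⟨s, hs⟩ := π.toLinearMap.exists_rightInverse_of_surjective
    (LinearMap.range_eq_top.2 hsurj)
  have hs' : ∀ X, π (s X) = X := fun X => LinearMap.congr_fun hs X
  set τ : Fin n → H → F := fun i g => Matrix.trace (π (single g 1) i) with hτ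
  let T : Fin n → (MonoidAlgebra F H →ₗ[F] F) := fun i =>
    (Matrix.traceLinearMap (Fin (d i)) F F).comp ((LinearMap.proj i).comp π.toLinearMap)
  have hT : ∀ i a, T i a = ∑ g : H, a.coeff g * τ i g := by
    intro i a
    conv_lhs => rw [← Brauer.sum_single_coeff a]
    rw [map_sum]
    refine Finset.sum_congr rfl fun g _ => ?_
    rw [← mul_one (a.coeff g), ← smul_eq_mul, ← MonoidAlgebra.smul_single, map_smul, smul_eq_mul,
      smul_eq_mul, mul_one]
    rfl
  obtain ⟨N, hN1, hN2⟩ := exists_regExp H p
  -- the value only depends on the regular part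
  have hreg : ∀ i g, τ i g = τ i (g ^ p ^ N) := by
    intro i g
    haveI : Nonempty (Fin (d i)) := ⟨⟨0, hd i⟩⟩
    haveI : CharP (Matrix (Fin (d i)) (Fin (d i)) F) p :=
      charP_of_injective_ringHom (f := Matrix.scalar (Fin (d i)) (α := F)) (fun a b (h : Matrix.scalar (Fin (d i)) a = Matrix.scalar (Fin (d i)) b) => Matrix.scalar_inj.1 h) p
    set r := g ^ p ^ N with hr
    set u := r⁻¹ * g with hu
    have hcom : Commute r g := (Commute.refl g).pow_left _
    have hu1 : u ^ p ^ N = 1 := by
      rw [hu, hcom.inv_left.mul_pow, inv_pow, hN2 r (hN1 g), ← hr, inv_mul_cancel]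
    set X := π (single u 1) i
    set Y := π (single r 1) i
    have hmul : ∀ x y : H, π (single x 1) i * π (single y 1) i = π (single (x * y) 1) i :=
      fun x y => by
        show (π (single x 1) * π (single y 1)) i = _
        rw [← map_mul, single_mul_single, mul_one]
    have hYX : π (single g 1) i = Y * X := by
      rw [show Y * X = _ from hmul r u, hu, mul_inv_cancel_left]
    have hXY : Commute Y (X - 1) := by
      refine Commute.sub_right ?_ (Commute.one_right _)
      show Y * X = X * Y
      rw [show Y * X = _ from hmul r u, show X * Y = _ from hmul u r,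
        show r * u = u * r from ((Commute.refl r).inv_right.mul_right hcom).eq]
    have hn : IsNilpotent (X - 1) := ⟨p ^ N, by
      rw [sub_pow_char_pow_of_commute _ _ (Commute.one_right X), one_pow, ← Pi.pow_apply, ← map_pow,
        single_pow, hu1, one_pow, ← one_def, map_one, Pi.one_apply, sub_self]⟩
    have h0 := (Matrix.isNilpotent_trace_of_isNilpotent (hXY.isNilpotent_mul_left hn)).eq_zero
    rw [mul_sub, mul_one, Matrix.trace_sub, sub_eq_zero, ← hYX] at h0
    exact h0
  have hindep : ∀ c : Fin n → F, (∀ g, ¬ p ∣ orderOf g → ∑ i, c i * τ i g = 0) → c = 0 := by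
    intro c hc
    funext i
    obtain ⟨a, ha⟩ := hsurj (Pi.single i (Matrix.single ⟨0, hd i⟩ ⟨0, hd i⟩ (1 : F)))
    have h1 : ∑ j, c j * T j a = 0 := by
      simp only [hT, Finset.mul_sum]
      rw [Finset.sum_comm]
      refine Finset.sum_eq_zero fun g _ => ?_
      have h2 := hc _ (hN1 g)
      simp only [← hreg] at h2
      rw [← mul_zero (a.coeff g), ← h2, Finset.mul_sum]
      exact Finset.sum_congr rfl fun j _ => mul_left_comm _ _ _
    rw [Finset.sum_eq_single i (fun j _ hj => ?_) (by simp)] at h1
    · have : T i a = 1 := by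
        show Matrix.trace (π a i) = 1
        rw [ha, Pi.single_eq_same]
        simp
      rwa [this, mul_one] at h1
    · rw [show T j a = Matrix.trace (π a j) from rfl, ha, Pi.single_eq_of_ne hj]
      simp
  have hsymm : ∀ i a b, T i (a * b) = T i (b * a) := fun i a b => by
    show Matrix.trace (π (a * b) i) = Matrix.trace (π (b * a) i)
    rw [map_mul, map_mul, Pi.mul_apply, Pi.mul_apply, Matrix.trace_mul_comm]
  have hcls : ∀ i g h, τ i (h * g * h⁻¹) = τ i g := by
    intro i g h
    have h1 := hsymm i (single h 1) (single (g * h⁻¹) 1)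
    rw [single_mul_single, single_mul_single, mul_one, inv_mul_cancel_right, ← mul_assoc] at h1
    exact h1
  refine ⟨n, τ, hcls, fun f hf => ?_, hindep, fun α => ?_, fun e he hec => ?_⟩
  · -- spanning
    let lam : MonoidAlgebra F H →ₗ[F] F :=
      { toFun := fun a => ∑ g : H, a.coeff g * f (g ^ p ^ N)
        map_add' := fun a b => by simp [add_mul, Finset.sum_add_distrib]
        map_smul' := fun c a => by simp [Finset.mul_sum, mul_assoc] }
    have hlsymm : ∀ a b, lam (a * b) = lam (b * a) := by
      have hl : ∀ a b, lam (a * b) =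
          ∑ x : H, ∑ y : H, a.coeff x * b.coeff y * f ((x * y) ^ p ^ N) := by
        intro a b
        show ∑ g : H, (a * b).coeff g * f (g ^ p ^ N) = _
        simp only [BrauerPairs.coeff_mul_sum, Finset.sum_mul]
        rw [Finset.sum_comm]
        refine Finset.sum_congr rfl fun x _ => ?_
        exact Fintype.sum_equiv (Equiv.mulLeft x⁻¹) _ _ fun g => by simp
      intro a b
      rw [hl, hl, Finset.sum_comm]
      refine Finset.sum_congr rfl fun y _ => Finset.sum_congr rfl fun x _ => ?_
      rw [mul_comm (a.coeff x), show x * y = x * (y * x) * x⁻¹ by group, conj_pow, hf]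
    have hlnil : ∀ a, IsNilpotent a → lam a = 0 := by
      intro a ha
      obtain ⟨K, hK⟩ := ha
      -- total over the elements with given regular part, up to conjugation
      have hcl : ∀ c : H, ¬ p ∣ orderOf c →
          Brauer.setTot {g : H | IsConj c (g ^ p ^ N)} a = 0 := by
        intro c hc
        have hQ : ∀ j : ℕ, ∀ x : H, x ^ p ^ (N * (j + 1)) = x ^ p ^ N := by
          intro j x
          induction j with
          | zero => simp
          | succ j ih =>
            rw [show N * (j + 1 + 1) = N * (j + 1) + N by ring, pow_add, pow_mul, ih]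
            exact hN2 _ (hN1 x)
        rcases Nat.eq_zero_or_pos N with hN0 | hN0
        · obtain ⟨M, hM⟩ : ∃ M, ∀ x : H, x ^ p ^ (M + K) = x ^ p ^ N := by
            refine ⟨Nat.totient (Nat.card H) * (K + 1) - K, fun x => ?_⟩
            have hK1 : K ≤ Nat.totient (Nat.card H) * (K + 1) := by
              have := Nat.totient_pos.2 (Nat.card_pos (α := H))
              nlinarith
            rw [Nat.sub_add_cancel hK1, hN0, pow_zero, pow_one]
            conv_rhs => rw [← pow_one x]
            have hnd : ¬ p ∣ Nat.card H := by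
              intro hd
              obtain ⟨y, hy⟩ := exists_prime_orderOf_dvd_card' p hd
              have := hN1 y
              rw [hN0, pow_zero, pow_one, hy] at this
              exact this dvd_rfl
            rw [pow_eq_pow_iff_modEq]
            refine Nat.ModEq.of_dvd (orderOf_dvd_natCard x) ?_
            rw [pow_mul]
            simpa using (Nat.ModEq.pow_totient (hp.out.coprime_iff_not_dvd.2 hnd)).pow (K + 1)
          have h := Brauer.setTot_pow_prime_pow (G := H) (k := F) (p := p) (M + K) {y | IsConj c y}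
            (fun y h hy => hy.trans (isConj_iff.2 ⟨h, rfl⟩)) a
          rw [pow_eq_zero_of_le (le_trans (Nat.le_add_left K M) (Nat.lt_pow_self hp.out.one_lt).le) hK,
            show Brauer.setTot {y | IsConj c y} (0 : MonoidAlgebra F H) = 0 by
              simp [Brauer.setTot]] at h
          have h2 := eq_zero_of_pow_eq_zero h.symm
          rwa [show {g : H | g ^ p ^ (M + K) ∈ {y | IsConj c y}} = {g | IsConj c (g ^ p ^ N)} by
            ext g; simp [hM]] at h2
        · have h := Brauer.setTot_pow_prime_pow (G := H) (k := F) (p := p) (N * (K + 1))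
            {y | IsConj c y} (fun y h hy => hy.trans (isConj_iff.2 ⟨h, rfl⟩)) a
          rw [pow_eq_zero_of_le (le_trans (by nlinarith) (Nat.lt_pow_self hp.out.one_lt).le) hK,
            show Brauer.setTot {y | IsConj c y} (0 : MonoidAlgebra F H) = 0 by
              simp [Brauer.setTot]] at h
          have h2 := eq_zero_of_pow_eq_zero h.symm
          rwa [show {g : H | g ^ p ^ (N * (K + 1)) ∈ {y | IsConj c y}} =
              {g | IsConj c (g ^ p ^ N)} by ext g; simp [hQ]] at h2
      show ∑ g : H, a.coeff g * f (g ^ p ^ N) = 0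
      haveI : Finite (ConjClasses H) := Finite.of_surjective _ ConjClasses.mk_surjective
      letI : Fintype (ConjClasses H) := Fintype.ofFinite _
      rw [← Finset.sum_fiberwise Finset.univ (fun g : H => ConjClasses.mk (g ^ p ^ N))]
      refine Finset.sum_eq_zero fun C _ => ?_
      by_cases hC : ∃ g0 : H, ConjClasses.mk (g0 ^ p ^ N) = C
      · obtain ⟨g0, rfl⟩ := hC
        have h3 := hcl _ (hN1 g0)
        have hset : ∀ g : H, ConjClasses.mk (g ^ p ^ N) = ConjClasses.mk (g0 ^ p ^ N) ↔
            IsConj (g0 ^ p ^ N) (g ^ p ^ N) := fun g => by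
          rw [ConjClasses.mk_eq_mk_iff_isConj, isConj_comm]
        rw [Finset.sum_congr rfl (g := fun g => a.coeff g * f (g0 ^ p ^ N)) fun g hg => by
          obtain ⟨y, hy⟩ := isConj_iff.1 ((hset g).1 (Finset.mem_filter.1 hg).2)
          rw [← hy, hf], ← Finset.sum_mul, Finset.sum_filter]
        simp only [hset]
        rw [Brauer.setTot] at h3
        simp only [Set.indicator_apply, Set.mem_setOf_eq] at h3
        rw [h3, zero_mul]
      · push Not at hC
        rw [Finset.filter_false_of_mem fun g _ => hC g, Finset.sum_empty]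
    have hlπ : ∀ a, lam a = lam (s (π a)) := by
      intro a
      have h0 : π (a - s (π a)) = 0 := by rw [map_sub, hs', sub_self]
      have h1 := hlnil _ (by simpa using hnil _ h0 1)
      rwa [map_sub, sub_eq_zero] at h1
    refine ⟨fun i => lam (s (Pi.single i (Matrix.single ⟨0, hd i⟩ ⟨0, hd i⟩ 1))), fun g hg => ?_⟩
    have hμ : ∀ i, ∀ X Y : Matrix (Fin (d i)) (Fin (d i)) F,
        lam (s (Pi.single i (X * Y))) = lam (s (Pi.single i (Y * X))) := by
      intro i X Y
      rw [Pi.single_mul, Pi.single_mul]
      have h2 := (hlπ _).symm.trans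
        ((hlsymm (s (Pi.single i X)) (s (Pi.single i Y))).trans (hlπ _))
      rw [map_mul π, map_mul π, hs', hs'] at h2
      exact h2
    have hval : lam (single g 1) = f g := by
      show ∑ x : H, (single g (1 : F)).coeff x * f (x ^ p ^ N) = f g
      rw [Finset.sum_eq_single g (fun b _ hb => by simp [coeff_single, Ne.symm hb]) (by simp)]
      simp [coeff_single, hN2 g hg]
    rw [← hval, hlπ, ← Finset.univ_sum_single (π (single g 1)), map_sum, map_sum]
    refine Finset.sum_congr rfl fun i _ => ?_
    exact symm_form_eq (lam ∘ₗ s ∘ₗ LinearMap.single F (fun k => Matrix (Fin (d k)) (Fin (d k)) F) i)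
      (fun X Y => hμ i X Y) ⟨0, hd i⟩ _
  · -- automorphisms
    let A : MonoidAlgebra F H →ₐ[F] MonoidAlgebra F H :=
      MonoidAlgebra.mapDomainAlgHom F F α.toMonoidHom
    have hA : ∀ g, A (single g 1) = single (α g) 1 := fun g => by simp [A]
    have hAs : Function.Surjective A := by
      intro a
      refine ⟨MonoidAlgebra.mapDomainAlgHom F F α.symm.toMonoidHom a, ?_⟩
      induction a using MonoidAlgebra.induction_on with
      | of g => simp [A]
      | add a b ha hb => simp only [map_add, ha, hb]
      | smul r a ha => simp only [map_smul, ha]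
    have hclass : ∀ i, ∃ j, ∀ g, τ i (α g) = τ j g := by
      intro i
      let φ : MonoidAlgebra F H →ₐ[F] Matrix (Fin (d i)) (Fin (d i)) F :=
        ((Pi.evalAlgHom F (fun j => Matrix (Fin (d j)) (Fin (d j)) F) i).comp π).comp A
      have hφs : Function.Surjective φ := fun X => by
        obtain ⟨b, hb⟩ := hsurj (Pi.single i X)
        obtain ⟨a, rfl⟩ := hAs b
        exact ⟨a, by show π (A a) i = X; rw [hb, Pi.single_eq_same]⟩
      have hφ0 : ∀ a, π a = 0 → φ a = 0 := fun a ha => eq_zero_of_forall_isNilpotent fun Y => by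
        obtain ⟨b, rfl⟩ := hφs Y
        rw [← map_mul]
        exact (hnil a ha b).map φ
      have hφπ : ∀ a, φ a = φ (s (π a)) := fun a => by
        rw [← sub_eq_zero, ← map_sub]
        exact hφ0 _ (by rw [map_sub, hs', sub_self])
      let ψ : (Π j, Matrix (Fin (d j)) (Fin (d j)) F) →ₗ[F] Matrix (Fin (d i)) (Fin (d i)) F :=
        φ.toLinearMap.comp s
      have hψm : ∀ X Y, ψ (X * Y) = ψ X * ψ Y := fun X Y => by
        show φ (s (X * Y)) = φ (s X) * φ (s Y)
        rw [← map_mul φ (s X) (s Y), hφπ (s X * s Y), map_mul π, hs', hs']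
      have hψπ : ∀ a, ψ (π a) = φ a := fun a => (hφπ a).symm
      have hψs : Function.Surjective ψ := fun X => by
        obtain ⟨a, rfl⟩ := hφs X
        exact ⟨π a, hψπ a⟩
      -- one factor survives
      have hψ1 : ψ 1 = 1 := by rw [← map_one π, hψπ, map_one]
      obtain ⟨j, hj⟩ : ∃ j, ψ (Pi.single j 1) ≠ 0 := by
        by_contra hc
        push Not at hc
        haveI : Nonempty (Fin (d i)) := ⟨⟨0, hd i⟩⟩
        have : ψ (∑ j, Pi.single j 1) = 0 := by
          rw [map_sum]; exact Finset.sum_eq_zero fun j _ => hc j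
        rw [show (∑ j, Pi.single j (1 : Matrix (Fin (d j)) (Fin (d j)) F)) = 1 from
          Finset.univ_sum_single _, hψ1] at this
        exact one_ne_zero this
      have hscal : ∀ X : Matrix (Fin (d i)) (Fin (d i)) F,
          Commute (ψ (Pi.single j 1)) X := fun X => by
        obtain ⟨Z, rfl⟩ := hψs X
        show _ * _ = _ * _
        rw [← hψm, ← hψm]
        congr 1
        funext k
        rcases eq_or_ne k j with rfl | hk
        · simp
        · simp [Pi.single_eq_of_ne hk]
      have hone : ψ (Pi.single j 1) = 1 := by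
        obtain ⟨c, hc⟩ := Matrix.mem_range_scalar_iff_commute_single'.2 fun a b => (hscal _).symm
        rw [← hc] at hj ⊢
        haveI : Nonempty (Fin (d i)) := ⟨⟨0, hd i⟩⟩
        have hcc : c * c = c := by
          apply (Matrix.scalar_inj (n := Fin (d i))).1
          rw [map_mul, hc, ← hψm, ← Pi.single_mul, mul_one]
        have hc0 : c ≠ 0 := fun h => hj (by rw [h, map_zero])
        rw [show c = 1 from mul_left_cancel₀ hc0 (by rw [hcc, mul_one]), map_one]
      let ξ : Matrix (Fin (d j)) (Fin (d j)) F →ₗ[F] Matrix (Fin (d i)) (Fin (d i)) F :=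
        ψ.comp (LinearMap.single F (fun k => Matrix (Fin (d k)) (Fin (d k)) F) j)
      have hξm : ∀ X Y, ξ (X * Y) = ξ X * ξ Y := fun X Y => by
        show ψ (Pi.single j (X * Y)) = _
        rw [Pi.single_mul, hψm]
        rfl
      have hψξ : ∀ Z, ψ Z = ξ (Z j) := fun Z => by
        conv_lhs => rw [← mul_one Z]
        rw [hψm, hψ1, ← hone, ← hψm]
        show _ = ψ (Pi.single j (Z j))
        congr 1
        funext k
        rcases eq_or_ne k j with rfl | hk
        · simp
        · simp [Pi.single_eq_of_ne hk]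
      have hQ : Matrix.trace (ξ (Matrix.single (⟨0, hd j⟩ : Fin (d j)) (⟨0, hd j⟩ : Fin (d j)) (1 : F))) = 1 := by
        set E := Matrix.single (⟨0, hd j⟩ : Fin (d j)) (⟨0, hd j⟩ : Fin (d j)) (1 : F) with hE
        refine trace_eq_one_of_corner ?_ ?_ fun Y => ?_
        · rw [← hξm]; simp [hE]
        · intro h0
          replace h0 : ξ E = 0 := h0
          have hall : ∀ a b, ξ (Matrix.single a b (1 : F)) = 0 := fun a b => by
            have h2 : Matrix.single a b (1 : F) = Matrix.single a (⟨0, hd j⟩ : Fin (d j)) 1 * E *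
                Matrix.single (⟨0, hd j⟩ : Fin (d j)) b 1 := by simp [hE]
            rw [h2, hξm, hξm, h0, mul_zero, zero_mul]
          have h1 : ξ 1 = 0 := by
            rw [← Matrix.diagonal_one, ← Matrix.sum_single_eq_diagonal, map_sum]
            exact Finset.sum_eq_zero fun a _ => hall a a
          exact hj h1
        · obtain ⟨Z, rfl⟩ := hψs Y
          refine ⟨Z j ⟨0, hd j⟩ ⟨0, hd j⟩, ?_⟩
          rw [hψξ, ← hξm, ← hξm, ← map_smul]
          congr 1
          simp [hE]
      refine ⟨j, fun g => ?_⟩
      have h1 := symm_form_eq ((Matrix.traceLinearMap (Fin (d i)) F F).comp ξ)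
        (fun X Y => by
          show Matrix.trace (ξ (X * Y)) = Matrix.trace (ξ (Y * X))
          rw [hξm, hξm, Matrix.trace_mul_comm]) ⟨0, hd j⟩ (π (single g 1) j)
      simp only [LinearMap.comp_apply, Matrix.traceLinearMap_apply, hQ, one_mul] at h1
      show Matrix.trace (π (single (α g) 1) i) = Matrix.trace (π (single g 1) j)
      rw [← h1, ← hψξ, hψπ, ← hA]
      rfl
    choose σ hσ using hclass
    have hinj : Function.Injective σ := by
      intro i i' h
      by_contra hne
      have h1 := hindep (Pi.single i 1 - Pi.single i' 1) fun g _ => by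
        obtain ⟨g', rfl⟩ := α.surjective g
        simp [sub_mul, Finset.sum_sub_distrib, hσ, h, Pi.single_apply]
      have h2 := congrFun h1 i
      simp [Pi.single_eq_of_ne hne] at h2
    exact ⟨Equiv.ofBijective σ (Finite.injective_iff_bijective.1 hinj), hσ⟩
  · -- central idempotents
    have hsc : ∀ i, π e i = 1 ∨ π e i = 0 := by
      intro i
      haveI : Nonempty (Fin (d i)) := ⟨⟨0, hd i⟩⟩
      obtain ⟨c, hc⟩ := (Matrix.mem_range_scalar_iff_commute_single' (M := π e i)).2 fun a b => by
        obtain ⟨x, hx⟩ := hsurj (Pi.single i (Matrix.single a b (1 : F)))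
        have h1 := congrFun (congrArg π (hec x)) i
        rw [map_mul, map_mul, Pi.mul_apply, Pi.mul_apply, hx, Pi.single_eq_same] at h1
        exact h1.symm
      have hcc : c * c = c := by
        apply (Matrix.scalar_inj (n := Fin (d i))).1
        rw [map_mul, hc, ← Pi.mul_apply, ← map_mul, he]
      rcases eq_or_ne c 0 with h0 | h0
      · right; rw [← hc, h0, map_zero]
      · left; rw [← hc, show c = 1 from mul_left_cancel₀ h0 (by rw [hcc, mul_one]), map_one]
    refine ⟨fun i => decide (π e i = 1), fun i g => ?_⟩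
    have h1 : ∑ k : H, e.coeff k * τ i (k * g) = T i (e * single g 1) := by
      rw [hT]
      refine Fintype.sum_equiv (Equiv.mulRight g) _ _ fun k => ?_
      simp
    rw [h1, show T i (e * single g 1) = Matrix.trace (π (e * single g 1) i) from rfl, map_mul,
      Pi.mul_apply]
    rcases hsc i with h | h
    · rw [if_pos (by simp [h]), h, one_mul]
    · haveI : Nonempty (Fin (d i)) := ⟨⟨0, hd i⟩⟩
      rw [if_neg (by simp [h]), h, zero_mul, Matrix.trace_zero]

end Cfsg.Agent.BlkRat
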